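import Mathlib
import Cfsg.Agent.Lib.Helper55.OOG.Defs
import Cfsg.Agent.Lib.Helper97.OHyp.OddOmega
import Cfsg.Agent.Lib.Helper92.OHyp.Qnd

/-!
# OOG (S2413), package [OM]

Siegel transformations of the odd-dimensional quadratic form over a finite field of odd order
have odd order `p`, hence lie in `Ω`.
-/

set_option autoImplicit false

namespace Cfsg.Agent.Lib.Helper97.OOG

open Cfsg.Agent.Lib.Helper55.OOG

universe u

theorem pkgOm_of (hAlg : PkgAlg.{u}) (hPow : PkgPow.{u}) : PkgOm.{u} := by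
  intro m F _ _ hodd u w σ hu huw hσ
  obtain ⟨p, hp⟩ := CharP.exists F
  have hpprime : p.Prime := by
    obtain ⟨n, hn1, hn2⟩ := FiniteField.card F p
    exact hn1
  have hpodd : Odd p := by
    obtain ⟨n, hn1, hn2⟩ := FiniteField.card F p
    rcases hpprime.eq_two_or_odd' with h2 | h2
    · exfalso
      rw [hn2, h2] at hodd
      exact (Nat.not_even_iff_odd.mpr hodd) ((Nat.even_pow' n.ne_zero).mpr even_two)
    · exact h2
  have hσp : σ ^ p = 1 := by
    have h1 := hPow m F u w σ hu huw hσ p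
    rw [CharP.cast_eq_zero F p, zero_smul] at h1
    exact isSieg_ext h1 (hAlg m F u hu).1
  have hord : Odd (orderOf σ) := by
    have hdvd : orderOf σ ∣ p := orderOf_dvd_of_pow_eq_one hσp
    rcases (Nat.dvd_prime hpprime).mp hdvd with h | h
    · rw [h]; exact odd_one
    · rw [h]; exact hpodd
  have h2 : (2 : F) ≠ 0 := by
    intro h
    have h3 : p ∣ 2 := (CharP.cast_eq_zero_iff F p 2).mp (by exact_mod_cast h)
    have h4 : p = 2 := (Nat.prime_dvd_prime_iff_eq hpprime Nat.prime_two).mp h3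
    rw [h4] at hpodd
    exact absurd hpodd (by decide)
  have hmem := Cfsg.Agent.Lib.Helper97.OHyp.pkgOddOmega F (Unit ⊕ (Fin m ⊕ Fin m))
    (Cfsg.quadFormOdd m F) (Cfsg.Agent.Lib.Helper92.OHyp.quadFormOdd_nondeg' h2 m) h2
    (σ : Matrix.GeneralLinearGroup (Unit ⊕ (Fin m ⊕ Fin m)) F) σ.2
    (by rwa [Subgroup.orderOf_coe])
  obtain ⟨τ, hτ, hτe⟩ := Subgroup.mem_map.mp hmem
  have hτσ : τ = σ := Subtype.ext hτe
  rwa [hτσ] at hτ

end Cfsg.Agent.Lib.Helper97.OOG
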